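import Mathlib
import Cfsg.Agent.Lib.Helper48.Ami.TopDefs

set_option autoImplicit false

/-!
# AMI (S4294), package [T2K2]

Index-2 case: an element `y` conjugating the element `x` of order 5 of `S ≅ SL(2,5)` to `x²`
is impossible (reduction to the ring core [OCT]).
-/

namespace Cfsg.Agent.Lib.Helper65.Ami

open Cfsg.Agent.Lib.Helper48.AmiTop

universe u

section common

variable {D : Type u} [DivisionRing D]

/-- the embedding of a subgroup of the unit group into the ring -/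
def toD (H : Subgroup Dˣ) : ↥H →* D := (Units.coeHom D).comp H.subtype

theorem toD_injective (H : Subgroup Dˣ) : Function.Injective (toD H) :=
  fun _ _ h => Subtype.ext (Units.ext h)

theorem sq_eq_one_D {u : D} (h : u * u = 1) : u = 1 ∨ u = -1 := by
  have h2 : (u - 1) * (u + 1) = 0 := by
    have h1 : (u - 1) * (u + 1) = u * u - 1 := by noncomm_ring
    rw [h1, h, sub_self]
  rcases mul_eq_zero.mp h2 with h3 | h3
  · exact Or.inl (sub_eq_zero.mp h3)
  · exact Or.inr (eq_neg_of_add_eq_zero_left h3)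

/-- the central involution of `S ≅ SL(2,5)` is `-1` in `D` -/
theorem toD_z (hB : PkgMBasic) (H : Subgroup Dˣ) (S : Subgroup ↥H) (e : ↥S ≃* SL25) :
    toD H ((e.symm (-1) : ↥S) : ↥H) = -1 := by
  obtain ⟨-, -, -, -, hm1, hm1sq, -, -⟩ := hB
  have hzz : (e.symm (-1) : ↥S) * e.symm (-1) = 1 := by rw [← map_mul, hm1sq, map_one]
  have h1 : toD H ((e.symm (-1) : ↥S) : ↥H) * toD H ((e.symm (-1) : ↥S) : ↥H) = 1 := by
    rw [← map_mul, ← Subgroup.coe_mul, hzz, Subgroup.coe_one, map_one]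
  rcases sq_eq_one_D h1 with h | h
  · exfalso
    apply hm1
    have h2 : ((e.symm (-1) : ↥S) : ↥H) = 1 := toD_injective H (by rw [h, map_one])
    have h3 : (e.symm (-1) : ↥S) = 1 := Subtype.ext h2
    have h4 := congrArg e h3
    rwa [e.apply_symm_apply, map_one] at h4
  · exact h

end common

/-- [T2K2] -/
theorem pkgT2K2_of (hB : PkgMBasic) (h8 : PkgMF8) (hO : PkgOct.{u}) : PkgT2K2.{u} := by
  intro D _ _ H S e hSn hsq y hy
  have hzD := toD_z hB H S e
  obtain ⟨hA2, hAX3, hX5, hX1, hm1, hm1sq, hK2, hAK⟩ := hB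
  obtain ⟨x, hx⟩ : ∃ x : ↥S, x = e.symm mX := ⟨_, rfl⟩
  rw [← hx] at hy
  have hex : e x = mX := by rw [hx, e.apply_symm_apply]
  have hx5 : x ^ 5 = 1 := by rw [hx, ← map_pow, hX5, map_one]
  have hx1 : x ≠ 1 := by
    intro h
    apply hX1
    rw [← hex, h, map_one]
  have hxH5 : (x : ↥H) ^ 5 = 1 := by rw [← Subgroup.coe_pow, hx5, Subgroup.coe_one]
  have hyx : y * (x : ↥H) = (x : ↥H) ^ 2 * y := by
    rw [← hy]
    group
  obtain ⟨w, hw⟩ : ∃ w : ↥S, (w : ↥H) = y * y := ⟨⟨y * y, hsq y⟩, rfl⟩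
  have hwx : w * x * w⁻¹ = x⁻¹ := by
    apply Subtype.ext
    rw [Subgroup.coe_mul, Subgroup.coe_mul, Subgroup.coe_inv, Subgroup.coe_inv, hw]
    calc y * y * (x : ↥H) * (y * y)⁻¹ = y * (y * (x : ↥H) * y⁻¹) * y⁻¹ := by group
      _ = y * (x : ↥H) ^ 2 * y⁻¹ := by rw [hy]
      _ = (y * (x : ↥H) * y⁻¹) ^ 2 := (conj_pow).symm
      _ = ((x : ↥H) ^ 2) ^ 2 := by rw [hy]
      _ = (x : ↥H)⁻¹ := by
        rw [← pow_mul]
        exact eq_inv_of_mul_eq_one_left (by rw [← pow_succ]; exact hxH5)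
  have hew : e w * mX * (e w)⁻¹ = mX⁻¹ := by
    have h1 := congrArg e hwx
    rwa [map_mul, map_mul, map_inv, map_inv, hex] at h1
  have hew2 : e w * e w = -1 := h8 (e w) hew
  have hz : w * w = e.symm (-1) := by
    rw [← map_mul] at hew2
    rw [← hew2, e.symm_apply_apply]
  have hy4 : y ^ 4 = ((e.symm (-1) : ↥S) : ↥H) := by
    rw [← hz, Subgroup.coe_mul, hw, show (4 : ℕ) = 2 + 2 from rfl, pow_add, pow_two]
  refine hO D (toD H (x : ↥H)) (toD H y) ?_ ?_ ?_ ?_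
  · rw [← map_pow, hxH5, map_one]
  · intro h
    apply hx1
    have h2 : (x : ↥H) = 1 := toD_injective H (by rw [h, map_one])
    exact Subtype.ext h2
  · rw [← map_mul, hyx, map_mul, map_pow]
  · rw [← map_pow, hy4, hzD]

example (hB : PkgMBasic) (h8 : PkgMF8) (hO : PkgOct.{0}) : PkgT2K2.{0} := pkgT2K2_of hB h8 hO
example (hB : PkgMBasic) (h8 : PkgMF8) (hO : PkgOct.{3}) : PkgT2K2.{3} := pkgT2K2_of hB h8 hO

end Cfsg.Agent.Lib.Helper65.Ami
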